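import Cfsg.Agent.H40.AbelianSubsections
import Cfsg.Agent.H22.PairInducedIn
import Cfsg.Agent.H40.BlockDefect

/-!
# Subsections at central elements of a defect group

For a block `b` of `H = D C(D)` inducing `B`, the block element of `b` is supported on `C(D)` and
gives a maximal pair `(D, f)`.  Each element central in `D` lies in a major subsection below this
pair, and two of these subsections are conjugate only under the stabiliser of the pair.
-/

set_option autoImplicit false
set_option linter.unusedSectionVars false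

namespace Cfsg.Agent.H41.Central

open Cfsg
open Cfsg.Agent.H22 (IsPairEl IsMaxEl IsBlockEl Below PLe NSub cS cj el elTop pairStab)
open Cfsg.Agent.H41 (ResField omegaBar classSumZ)

universe u

variable {G : Type u} [Group G] [Finite G] {p : ℕ} [Fact p.Prime] {M : Ideal Cfsg.AlgInt}
  [M.IsMaximal] [CharP (ResField M) p]

/-- Induction inside a subgroup followed by induction. -/
theorem isInducedBlock_of_inducedIn {H C : Subgroup G} (hCH : C ≤ H)
    {c : Set (Cfsg.IrrCharacter C)} {b : Set (Cfsg.IrrCharacter H)}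
    {B : Set (Cfsg.IrrCharacter G)} (hcb : Cfsg.IsInducedBlockIn M H C c b)
    (hbB : Cfsg.IsInducedBlock M H b B) : Cfsg.IsInducedBlock M C c B := by
  obtain ⟨ξ, hξ⟩ := Cfsg.Agent.H41.IsPBlock.nonempty hcb.1
  obtain ⟨θ, hθ⟩ := Cfsg.Agent.H41.IsPBlock.nonempty hcb.2.1
  obtain ⟨χ, hχ⟩ := Cfsg.Agent.H41.IsPBlock.nonempty hbB.2.1
  refine (H40.isInducedBlock_iff hcb.1 hbB.2.1 hξ hχ).2 fun z => ?_
  rw [← H40.omegaBar_restrictZ_of_isInducedBlock hbB hθ hχ]
  have hlin : ∀ w, omegaBar M ξ (H22.pullZ hCH w) = omegaBar M θ w := fun w =>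
    LinearMap.congr_fun (H40.linearMap_ext_classSum
      (f := (omegaBar M ξ).toLinearMap ∘ₗ H22.pullZ hCH) (f' := (omegaBar M θ).toLinearMap)
      fun a => (H22.memLocalIdeal_inducedIn_sub_iff hCH ξ θ a).1 (hcb.2.2 ξ hξ θ hθ a)) w
  rw [← hlin]
  rfl

/-- The block element of a block of `D C(D)` is a block element of `C(D)`. -/
theorem isBlockEl_centralizer {D H : Subgroup G} (hD : IsPGroup p D)
    (hH : H = D ⊔ Subgroup.centralizer (D : Set G)) {f : MonoidAlgebra (ResField M) G}
    (hf : IsBlockEl H f) : IsBlockEl (Subgroup.centralizer (D : Set G)) f := by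
  have hDH : D ≤ H := hH ▸ le_sup_left
  have hCH : Subgroup.centralizer (D : Set G) ≤ H := hH ▸ le_sup_right
  refine ⟨⟨H22.supp_centralizer_of_idem hD hDH (hH ▸ H40.sup_centralizer_le_normalizer D) hf.cent
    hf.idem, hf.cent.inv.mono hCH⟩, hf.idem, hf.ne_zero, fun a ha ha2 => hf.prim a ⟨?_, ?_⟩ ha2⟩
  · exact ha.supp.mono hCH
  · rw [hH]
    exact (H22.inv_of_supp_centralizer ha.supp).sup ha.inv

/-- A block of `D C(D)` inducing a block with defect group `D` gives a maximal pair. -/
theorem isMaxEl_el (hM : Cfsg.IsPModular p M) {B : Set (Cfsg.IrrCharacter G)}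
    (hB : Cfsg.IsPBlock M B) {D : Subgroup G} (hBD : Cfsg.IsDefectGroup p M B D) {H : Subgroup G}
    (hH : H = D ⊔ Subgroup.centralizer (D : Set G)) {b : Set (Cfsg.IrrCharacter H)}
    (hind : Cfsg.IsInducedBlock M H b B) :
    IsMaxEl p ⊤ (elTop M B) (D, el M H b) := by
  classical
  have := Fintype.ofFinite G
  have hDp := H40.isPGroup_of_isDefectGroup hBD
  have hDH : D ≤ H := hH ▸ le_sup_left
  have hCH : Subgroup.centralizer (D : Set G) ≤ H := hH ▸ le_sup_right
  have hfC := isBlockEl_centralizer hDp hH (H22.isBlockEl_el hind.1)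
  obtain ⟨c, hc, hce⟩ := H22.exists_el_eq hfC
  have hin : Cfsg.IsInducedBlockIn M H (Subgroup.centralizer (D : Set G)) c b := by
    refine (H22.isInducedBlockIn_iff_below hDp hDH hCH hc hind.1).2 ?_
    rw [hce]
    show H22.cut _ _ * el M H b = el M H b
    rw [H22.cut_of_supp hfC.cent.supp, hfC.idem]
  have hcB := isInducedBlock_of_inducedIn hCH hin hind
  have hpair : Cfsg.IsBrauerPair p M D c := ⟨hDp, hc⟩
  obtain ⟨ε, ⟨hε, hεc⟩, -⟩ := H22.existsUnique_below (H22.split M G)
    (H22.isPairEl_of_isBrauerPair hpair)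
  obtain ⟨A, hA, rfl⟩ := H22.exists_elTop_eq hε
  have hAB : B = A := by
    have hof := (H22.isBrauerPairOf_iff hA hpair).2 hεc
    obtain ⟨χ, hχ⟩ := Cfsg.Agent.H41.IsPBlock.nonempty hcB.2.1
    by_cases hχA : χ ∈ A
    · exact Cfsg.Agent.H41.block_eq_of_mem_of_mem hcB.2.1 hA hχ hχA
    · exact absurd (Cfsg.Agent.H41.eq_blockOf_of_mem hcB.2.1 hχ ▸ hcB)
        (H32.not_isInducedBlock_of_notMem hM hof hχA)
  subst hAB
  rw [← hce]
  exact H22.isMaxEl_of_isDefEl (H22.isPairEl_of_isBrauerPair hpair) hεc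
    ((H22.isDefectGroup_top_iff hM hB).1 hBD)

variable {B : Set (Cfsg.IrrCharacter G)} {P : Subgroup G} {e : MonoidAlgebra (ResField M) G}
  (hM : Cfsg.IsPModular p M) (hB : Cfsg.IsPBlock M B) (hm : IsMaxEl p ⊤ (elTop M B) (P, e))

include hM hB hm

/-- Below a maximal pair, at a subgroup centralised by its group, the pair is maximal in the
centraliser. -/
theorem isMaxEl_local {Q : Subgroup G} {f : MonoidAlgebra (ResField M) G}
    (hle : PLe p ⊤ (Q, f) (P, e)) (hPC : P ≤ Subgroup.centralizer (Q : Set G)) :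
    NSub p ⊤ (Q, f) (P, e) ∧ IsMaxEl p (Subgroup.centralizer (Q : Set G)) f (P, e) := by
  have hS := H22.split M G
  have hb := H22.isBlockEl_elTop hB
  have hQP : Q ≤ P := hle.le
  have hns : NSub p ⊤ (Q, f) (P, e) :=
    hle.nsub hS hm.pair (hPC.trans (Subgroup.centralizer_le_normalizer _))
  have hfC : IsBlockEl (Subgroup.centralizer (Q : Set G)) f := by simpa using hns.left.block
  have hbQ : Below (elTop M B) (Q, f) := (hle.below_iff hb).2 hm.below
  have hPe : IsPairEl p (Subgroup.centralizer (Q : Set G)) (P, e) := ⟨hPC, hns.right.pGroup, by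
    rw [show H22.cen (Subgroup.centralizer (Q : Set G)) P =
      Subgroup.centralizer (P : Set G) from inf_eq_left.2 (Subgroup.centralizer_le hQP)]
    simpa using hns.right.block⟩
  have hDef := hm.isDefEl hS hb
  refine ⟨hns, hPe, hns.occ, fun c hc hle' => (Subgroup.eq_of_le_of_card_ge hle'.le ?_).symm⟩
  have hcp := hle'.right hPe
  have hQc : Q ≤ c.1 := hQP.trans hle'.le
  have hns' : NSub p ⊤ (Q, f) c :=
    ⟨hns.left, ⟨le_top, hcp.pGroup, by
      rw [H22.cen_top, ← show H22.cen (Subgroup.centralizer (Q : Set G)) c.1 =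
        Subgroup.centralizer (c.1 : Set G) from inf_eq_left.2 (Subgroup.centralizer_le hQc)]
      exact hcp.block⟩, hQc, hcp.le.trans (Subgroup.centralizer_le_normalizer _),
      hfC.cent.inv.mono hcp.le, hc⟩
  exact hDef.card_le le_top hcp.pGroup
    (H22.below_ne_zero hns'.right ((hns'.below_iff hb).1 hbQ))

omit hM hB hm in
theorem le_centralizer_zpowers {u : G} (huC : u ∈ Subgroup.centralizer (P : Set G)) :
    P ≤ Subgroup.centralizer (Subgroup.zpowers u : Set G) := by
  rw [H40.centralizer_zpowers_eq]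
  intro y hy
  rw [Subgroup.mem_centralizer_singleton_iff]
  exact Subgroup.mem_centralizer_iff.1 huC y hy

/-- Each element central in the group of a maximal pair lies in a major subsection below it. -/
theorem exists_major {u : G} (hu : u ∈ P) (huC : u ∈ Subgroup.centralizer (P : Set G)) :
    ∃ b : Set (Cfsg.IrrCharacter (Subgroup.centralizer (Subgroup.zpowers u : Set G))),
      Cfsg.IsInducedBlock M (Subgroup.centralizer (Subgroup.zpowers u : Set G)) b B ∧
      Cfsg.blockDefect p b = Cfsg.blockDefect p B ∧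
      PLe p ⊤ (Subgroup.zpowers u, el M (Subgroup.centralizer (Subgroup.zpowers u : Set G)) b)
        (P, e) := by
  have hS := H22.split M G
  obtain ⟨f, hf, -⟩ := H22.existsUnique_ple hS hm.pair (Subgroup.zpowers u)
    (Subgroup.zpowers_le.2 hu)
  have hblk : IsBlockEl (Subgroup.centralizer (Subgroup.zpowers u : Set G)) f := by
    simpa using (hf.left hm.pair).block
  obtain ⟨b, hb, rfl⟩ := H22.exists_el_eq hblk
  have hPC := le_centralizer_zpowers (P := P) huC
  obtain ⟨-, hmax⟩ := isMaxEl_local hM hB hm hf hPC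
  have hQab : Subgroup.zpowers u ≤ Subgroup.centralizer (Subgroup.zpowers u : Set G) := by
    rw [H40.centralizer_zpowers_eq, Subgroup.zpowers_le, Subgroup.mem_centralizer_singleton_iff]
  refine ⟨b, (H40.isInducedBlock_iff_below hM hB (hm.pair.pGroup.to_le hf.le) hQab _ rfl hb).2
    ((hf.below_iff (H22.isBlockEl_elTop hB)).2 hm.below), ?_, hf⟩
  have hdef := (H22.isDefectGroup_subgroupOf_iff hM hb hmax.pair.le).2
    (hmax.isDefEl hS (H22.isBlockEl_el hb))
  have h1 := H40.card_defectGroup hM hb hdef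
  have h2 := H40.card_defectGroup hM hB
    ((H22.isDefectGroup_top_iff hM hB).2 (hm.isDefEl hS (H22.isBlockEl_elTop hB)))
  rw [Nat.card_congr (Subgroup.subgroupOfEquivOfLe hmax.pair.le).toEquiv, h2] at h1
  exact (Nat.pow_right_injective (Fact.out : p.Prime).two_le h1).symm

/-- Conjugate subsections at central elements are conjugate under the stabiliser. -/
theorem exists_pairStab_conj {u v g : G} {f f' : MonoidAlgebra (ResField M) G}
    (huC : u ∈ Subgroup.centralizer (P : Set G)) (hvC : v ∈ Subgroup.centralizer (P : Set G))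
    (hle : PLe p ⊤ (Subgroup.zpowers u, f) (P, e))
    (hle' : PLe p ⊤ (Subgroup.zpowers v, f') (P, e))
    (hg : g * u * g⁻¹ = v) (hf : cj g f = f') :
    ∃ y ∈ pairStab P e, y * u * y⁻¹ = v := by
  have hS := H22.split M G
  have hPC := le_centralizer_zpowers (P := P) huC
  obtain ⟨hns, hmax⟩ := isMaxEl_local hM hB hm hle hPC
  have hz : cS g (Subgroup.zpowers u) = Subgroup.zpowers v := by
    rw [← hg]; exact MonoidHom.map_zpowers _ _
  have hg' : PLe p ⊤ (cS g (Subgroup.zpowers u), cj g f) (P, e) := by rw [hz, hf]; exact hle'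
  have hPC' : P ≤ Subgroup.centralizer (cS g (Subgroup.zpowers u) : Set G) := by
    rw [hz]; exact le_centralizer_zpowers (P := P) hvC
  obtain ⟨hns1, hmax1⟩ := isMaxEl_local hM hB hm hg' hPC'
  have hfC : IsBlockEl (Subgroup.centralizer (Subgroup.zpowers u : Set G)) f := by
    simpa using hns.left.block
  have hp2 := hmax1.pair.conj g⁻¹
  rw [← H22.cS_centralizer, H22.cS_inv_cS] at hp2
  have hbel := hns1.occ.conj g⁻¹
  rw [H22.cj_inv_cj] at hbel
  obtain ⟨c, hc, hcle⟩ := H22.exists_conj_ple hS hfC hp2 hbel hmax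
  dsimp only at hcle
  rw [← H22.cS_mul, ← H22.cj_mul_apply] at hcle
  have heq : cS (c * g⁻¹) P = P :=
    Subgroup.eq_of_le_of_card_ge hcle.le (H22.card_cS _ P).ge
  rw [heq] at hcle
  have hfix : cj (c * g⁻¹) e = e :=
    H22.ple_unique hS hmax.pair hcle Relation.ReflTransGen.refl
  refine ⟨(c * g⁻¹)⁻¹, inv_mem ⟨H22.mem_normalizer_of_cS heq, hfix⟩, ?_⟩
  rw [H40.centralizer_zpowers_eq, Subgroup.mem_centralizer_singleton_iff] at hc
  calc (c * g⁻¹)⁻¹ * u * (c * g⁻¹)⁻¹⁻¹ = g * c⁻¹ * (u * c) * g⁻¹ := by group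
    _ = g * c⁻¹ * (c * u) * g⁻¹ := by rw [hc]
    _ = g * u * g⁻¹ := by group
    _ = v := hg

end Cfsg.Agent.H41.Central
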