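import Cfsg.Agent.H41.DegreeWeightedCore
import Cfsg.Agent.H41.Covering
import Cfsg.Agent.H19.Cores
import Cfsg.Agent.H35.PLength
import Cfsg.Agent.H84.PSolvable
import Cfsg.Agent.S0867

/-!
# Central idempotents of `p`-solvable groups vanishing at singular elements

Such an idempotent has locally integral coefficients, by induction through the inertia groups of
the characters of `O_{p'}(G)`.
-/

set_option autoImplicit false
set_option linter.unusedSectionVars false

open scoped ComplexConjugate

namespace Cfsg.Agent.H41.DegWeighted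

open MonoidAlgebra GRing
open Cfsg.Agent.H40 (embedH coeff_embedH_coe coeff_embedH_of_not_mem ext_coeff coeff_mul_eq_sum
  ofFun coeff_ofFun)
open Cfsg (IrrCharacter)

universe u

variable {G : Type u} [Group G] [Fintype G]

/-- A natural number prime to `p` lies outside `M`. -/
theorem natCast_notMem {p : ℕ} {M : Ideal Cfsg.AlgInt} (hM : Cfsg.IsPModular p M) {n : ℕ}
    (hn : ¬ p ∣ n) : (n : Cfsg.AlgInt) ∉ M := by
  intro h
  obtain ⟨x, y, hxy⟩ := Nat.isCoprime_iff_coprime.2
    ((Nat.Prime.coprime_iff_not_dvd hM.1).2 hn)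
  refine hM.2.1.ne_top ((Ideal.eq_top_iff_one M).2 ?_)
  have e : (x : Cfsg.AlgInt) * (p : Cfsg.AlgInt) + (y : Cfsg.AlgInt) * (n : Cfsg.AlgInt) = 1 := by
    exact_mod_cast congrArg (fun z : ℤ => (z : Cfsg.AlgInt)) hxy
  rw [← e]
  exact M.add_mem (M.mul_mem_left _ hM.2.2) (M.mul_mem_left _ h)

/-- The idempotents of a `p'`-subgroup are locally integral. -/
theorem idemOf_mem {p : ℕ} {M : Ideal Cfsg.AlgInt} (hM : Cfsg.IsPModular p M) (K : Subgroup G)
    (hK : ¬ p ∣ Nat.card K) (θ : IrrCharacter K) (g : G) :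
    Cfsg.MemLocalRing M ((idemOf K θ).coeff g) := by
  haveI := hM.2.1
  rw [← H41.mem_localRing]
  by_cases hg : g ∈ K
  · have h1 := coeff_idemOf K θ ⟨g, hg⟩
    simp only at h1
    rw [h1]
    refine mul_mem ?_ (mul_mem ?_ ?_)
    · exact ⟨1, (Nat.card K : Cfsg.AlgInt), natCast_notMem hM hK, by simp⟩
    · exact H41.isIntegral_mem_localRing (by
        rw [H42.irr_one_eq]
        exact isIntegral_algebraMap (R := ℤ) (A := ℂ) (x := ((Cfsg.charDegree (θ : K → ℂ) : ℕ) : ℤ)))
    · refine H41.isIntegral_mem_localRing ?_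
      rw [← H26.irr_inv]
      exact H42.isIntegral_value (H26.irr_isCharacter θ) _
  · rw [supp_idemOf K θ g hg]
    exact zero_mem _

/-- Distinct characters have orthogonal idempotents. -/
theorem idemOf_mul_eq_zero (K : Subgroup G) {θ φ : IrrCharacter K} (h : θ ≠ φ) :
    idemOf K θ * idemOf K φ = 0 := by
  rw [idemOf, idemOf, ← map_mul, ← map_zero (embedH ℂ K)]
  refine congrArg _ (congrArg Subtype.val (a₁ := H41.blockIdem ({θ} : Set (IrrCharacter K)) *
    H41.blockIdem ({φ} : Set (IrrCharacter K))) (a₂ := 0) (H41.center_ext_omega fun ψ => ?_))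
  rw [map_mul, H41.omega_blockIdem, H41.omega_blockIdem, map_zero]
  split_ifs with h1 h2
  · exact absurd (h1.symm.trans h2) h
  all_goals simp

/-- The idempotents of a subgroup sum to one. -/
theorem sum_idemOf (K : Subgroup G) [Fintype (IrrCharacter K)] :
    ∑ θ : IrrCharacter K, idemOf K θ = 1 := by
  classical
  have h : ∑ θ : IrrCharacter K, H41.blockIdem ({θ} : Set (IrrCharacter K)) = 1 := by
    refine H41.center_ext_omega fun ψ => ?_
    rw [map_sum, map_one]
    simp [H41.omega_blockIdem, eq_comm]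
  rw [← map_one (embedH ℂ K)]
  simp only [idemOf]
  rw [← map_sum, ← Subalgebra.coe_one (Subalgebra.center ℂ (MonoidAlgebra ℂ K)), ← h,
    ← AddSubmonoidClass.coe_finsetSum]

/-- Conjugation moves the idempotent to that of the twisted character. -/
theorem conj_idemOf (K : Subgroup G) [hK : K.Normal] [Fintype K] (θ : IrrCharacter K) (g : G) :
    MonoidAlgebra.single g⁻¹ (1 : ℂ) * idemOf K θ * MonoidAlgebra.single g 1 =
      idemOf K (H41.twistIrr K θ g) := by
  refine ext_coeff fun x => ?_
  have h0 := coeff_conj g⁻¹ (idemOf K θ) x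
  simp only [inv_inv] at h0
  rw [h0]
  by_cases hx : x ∈ K
  · have h1 := coeff_idemOf K θ ⟨g * x * g⁻¹, hK.conj_mem x hx g⟩
    have h2 := coeff_idemOf K (H41.twistIrr K θ g) ⟨x, hx⟩
    simp only at h1 h2
    rw [h1, h2, H41.twistIrr_degree, H41.twistIrr_apply]
  · rw [supp_idemOf K _ x hx, supp_idemOf K θ _ fun h => hx (by
      simpa [mul_assoc] using hK.conj_mem _ h g⁻¹)]

/-- The inertia group. -/
def stab (K : Subgroup G) [K.Normal] [Fintype K] (θ : IrrCharacter K) : Subgroup G where
  carrier := {g | H41.twistIrr K θ g = θ}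
  one_mem' := H41.twistIrr_one K θ
  mul_mem' := by
    intro a b (ha : H41.twistIrr K θ a = θ) (hb : H41.twistIrr K θ b = θ)
    show H41.twistIrr K θ (a * b) = θ
    rw [← H41.twistIrr_twistIrr, ha, hb]
  inv_mem' := by
    intro a (ha : H41.twistIrr K θ a = θ)
    show H41.twistIrr K θ a⁻¹ = θ
    conv_lhs => rw [← ha]
    rw [H41.twistIrr_inv_twistIrr]

/-- A central idempotent over a character is supported on the inertia group. -/
theorem coeff_mul_idemOf_eq_zero (K : Subgroup G) [hK : K.Normal] [Fintype K] (θ : IrrCharacter K)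
    {e : MonoidAlgebra ℂ G} (he : ∀ y, Commute e y) {g : G} (hg : g ∉ stab K θ) :
    (e * idemOf K θ).coeff g = 0 := by
  set ε := idemOf K θ
  set ε' := idemOf K (H41.twistIrr K θ g)
  set z := proj (lcoset K g) e with hz
  have hεs : Supp (K : Set G) ε := supp_idemOf K θ
  have hzK : CommK K z := (commK_of_commute he).proj g
  set κ := MonoidAlgebra.single g⁻¹ (1 : ℂ) * z with hκ
  have hκs : Supp (K : Set G) κ := by
    intro y hy
    rw [hκ, MonoidAlgebra.coeff_single_mul_apply, one_mul, inv_inv, hz,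
      coeff_proj_of_notMem (fun h => hy (by simpa [mem_lcoset] using h))]
  have h1 : κ * ε = ε' * κ := by
    rw [hκ, show ε' = _ from (conj_idemOf K θ g).symm, mul_assoc, ← hzK.commute hεs]
    simp only [mul_assoc]
    rw [← mul_assoc (MonoidAlgebra.single g (1 : ℂ)), MonoidAlgebra.single_mul_single,
      mul_inv_cancel, one_mul, ← MonoidAlgebra.one_def, one_mul]
  have h2 : κ * ε = 0 := by
    have e1 : κ * ε = ε * κ := ((commK_idemOf K θ).commute hκs)
    calc κ * ε = κ * (ε * ε) := by rw [idemOf_mul_self K θ]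
      _ = ε * κ * ε := by rw [← mul_assoc, e1]
      _ = ε * ε' * κ := by rw [mul_assoc, h1, ← mul_assoc]
      _ = 0 := by rw [idemOf_mul_eq_zero K (fun h => hg (show _ = θ from h.symm)), zero_mul]
  have h3 : z * ε = 0 := by
    have : z = MonoidAlgebra.single g (1 : ℂ) * κ := by
      rw [hκ, ← mul_assoc, MonoidAlgebra.single_mul_single, mul_inv_cancel, one_mul,
        ← MonoidAlgebra.one_def, one_mul]
    rw [this, mul_assoc, h2, mul_zero]
  rw [← coeff_proj_of_mem (show g ∈ lcoset K g by simp [mem_lcoset]) (e * ε), proj_mul g e hεs,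
    h3]
  simp

/-- The invariant case. -/
theorem coeff_mem_of_invariant {p : ℕ} [hp : Fact p.Prime] {M : Ideal Cfsg.AlgInt}
    (hM : Cfsg.IsPModular p M) (hsolv : Cfsg.IsPSolvable p G) (K : Subgroup G) [hKn : K.Normal] [Fintype K]
    (hK : K = Cfsg.pPrimeCore p G) (θ : IrrCharacter K)
    (hθ : ∀ g, H41.twistIrr K θ g = θ) (u : MonoidAlgebra ℂ G)
    (huc : ∀ y, Commute u y) (hui : u * u = u) (hua : GRing.adj u = u)
    (hus : ∀ g, p ∣ orderOf g → u.coeff g = 0) (hue : u * idemOf K θ = u) (g : G) :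
    Cfsg.MemLocalRing M (u.coeff g) := by
  classical
  have hKp : ¬ p ∣ Nat.card K := by
    rw [hK]
    exact (Nat.Prime.coprime_iff_not_dvd hp.out).1 (H19.pPrimeCore_coprime p).symm
  set π := QuotientGroup.mk' K
  set Q := Cfsg.pCore p (G ⧸ K) with hQ
  haveI : Q.Normal := H19.pCore_normal p _
  set Mx := Q.comap π with hMx
  haveI hMn : Mx.Normal := (H19.pCore_normal p _).comap π
  haveI := Fintype.ofFinite Mx
  have hKM : K ≤ Mx := QuotientGroup.le_comap_mk' K _
  have hmap : Mx.map π = Q :=
    Subgroup.map_comap_eq_self_of_surjective (QuotientGroup.mk'_surjective K) Q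
  have hMp : IsPGroup p (Mx.map π) := by rw [hmap]; exact H19.pCore_isPGroup p
  have hhh : Subgroup.centralizer (Q : Set (G ⧸ K)) ≤ Q := by
    subst hK
    exact H35.centralizer_pCore_le_of_isPSolvable (H19.pPrimeCore_quotient_pPrimeCore p)
      (H35.isPSolvable_subgroup
        (H84.isPSolvable_of_surjective π (QuotientGroup.mk'_surjective _) hsolv) _)
  -- the canonical extension
  let e := Subgroup.subgroupOfEquivOfLe hKM
  let θ' : K.subgroupOf Mx → ℂ := fun x => (θ : K → ℂ) (e x)
  have hθ' : Cfsg.IsIrrCharacter (K.subgroupOf Mx) θ' := H56.isIrrCharacter_comp_equiv θ.2 e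
  have hinv' : ∀ (t : Mx) (x : K.subgroupOf Mx),
      θ' ⟨t * x * t⁻¹, (inferInstance : (K.subgroupOf Mx).Normal).conj_mem (x : Mx) x.2 t⟩ =
        θ' x := by
    intro t x
    have := congrArg (fun φ : IrrCharacter K => (φ : K → ℂ) (e x)) (hθ (t : G))
    simp only [H41.twistIrr_apply] at this
    exact (congrArg (θ : K → ℂ) (Subtype.ext rfl)).trans this
  set d := Cfsg.charDegree θ' with hd
  have hd1 : θ' 1 = (d : ℂ) := H43.irr_charDegree_spec (⟨θ', hθ'⟩ : IrrCharacter _)
  have hcard : Nat.card (K.subgroupOf Mx) = Nat.card K := Nat.card_congr e.toEquiv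
  have hnd : ¬ p ∣ d := fun h => hKp (hcard ▸ h.trans (H43.irr_charDegree_dvd
    (⟨θ', hθ'⟩ : IrrCharacter _)))
  obtain ⟨k, hk⟩ : ∃ k, (K.subgroupOf Mx).index = p ^ k := by
    obtain ⟨k, hk⟩ := IsPGroup.iff_card.1 hMp
    refine ⟨k, ?_⟩
    show K.relIndex Mx = p ^ k
    rw [← hk, ← Subgroup.relIndex_ker, QuotientGroup.ker_mk']
  have hnod : ¬ p ∣ Cfsg.detOrder θ' := fun h =>
    hKp (hcard ▸ h.trans (H43.detOrder_dvd_card (H26.isCharacter_of_irr hθ')))
  have hcop : Nat.Coprime (K.subgroupOf Mx).index (Cfsg.detOrder θ' * d) := by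
    rw [hk]
    exact Nat.Coprime.pow_left k ((Nat.Prime.coprime_iff_not_dvd hp.out).2
      (hp.out.not_dvd_mul hnod hnd))
  obtain ⟨ξ, ⟨hξ, hres, hdet⟩, huniq⟩ := S0867.result (K.subgroupOf Mx) θ' hθ' hinv' d hd1 hcop
  have hinvξ : ∀ (g : G) (m : Mx), ξ ⟨g * m * g⁻¹, hMn.conj_mem m m.2 g⟩ = ξ m := by
    intro g m
    let c : Mx ≃* Mx := MulAut.conjNormal g
    have h1 : (fun x => ξ (c x)) = ξ := by
      refine huniq _ (H56.isIrrCharacter_comp_equiv hξ c) (fun n => ?_) ?_
      · have hn : (g * ((n : Mx) : G) * g⁻¹) ∈ K := hKn.conj_mem _ (Subgroup.mem_subgroupOf.1 n.2) g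
        have e1 : c (n : Mx) = ((⟨⟨_, hKM hn⟩, Subgroup.mem_subgroupOf.2 hn⟩ :
            K.subgroupOf Mx) : Mx) := Subtype.ext (by simp [c])
        show ξ (c n) = θ' n
        rw [e1, hres]
        have := congrArg (fun φ : IrrCharacter K => (φ : K → ℂ) (e n)) (hθ g)
        simp only [H41.twistIrr_apply] at this
        exact (congrArg (θ : K → ℂ) (Subtype.ext rfl)).trans this
      · rw [H43.detOrder_comp_equiv c (H26.isCharacter_of_irr hξ), hdet]
        exact Nat.Coprime.coprime_mul_right_right hcop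
    have h2 := congrFun h1 m
    exact (congrArg ξ (Subtype.ext (by simp [c]))).trans h2
  -- the support
  have hsup : ∀ x : G, x ∉ K → u.coeff x = 0 := by
    intro x hx
    by_contra hne
    have hreg : ¬ p ∣ orderOf x := fun h => hne (hus x h)
    have hc : π x ∈ Subgroup.centralizer (Q : Set (G ⧸ K)) := by
      refine Subgroup.mem_centralizer_iff.2 fun y hy => ?_
      rw [← hmap] at hy
      obtain ⟨w, hw, rfl⟩ := hy
      have h := conj_mem_of_ne_zero K Mx hKM hKp hMp θ ⟨ξ, hξ⟩
        (fun k => (hres (e.symm k)).trans (congrArg (θ : K → ℂ) (e.apply_symm_apply k))) hinvξ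
        u huc hui hua hus hue hreg hne hw
      rw [← QuotientGroup.eq_one_iff] at h
      have h' : (π x)⁻¹ * (π w * π x * (π w)⁻¹) = 1 := by simpa [π] using h
      rw [inv_mul_eq_one] at h'
      exact (mul_inv_eq_iff_eq_mul.1 h'.symm)
    obtain ⟨j, hj⟩ := IsPGroup.iff_orderOf.1 (H19.pCore_isPGroup p) ⟨_, hhh hc⟩
    rw [Subgroup.orderOf_mk] at hj
    refine hx ((QuotientGroup.eq_one_iff x).1 (orderOf_eq_one_iff.1 ?_))
    change orderOf (π x) = 1
    rw [hj]
    rcases j with _ | j
    · rfl
    · exact absurd ((dvd_pow_self p j.succ_ne_zero).trans (hj ▸ orderOf_map_dvd π x)) hreg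
  -- the idempotent inside `ℂK`
  set w : H41.groupAlgCenter ℂ K := H41.centerOfFun (fun k : K => u.coeff (k : G)) (fun k l => by
    simpa using H40.mem_center_iff_coeff.1
      (Subalgebra.mem_center_iff.2 fun b => ((huc b).eq).symm) (k : G) (l : G)) with hw
  have hwu : embedH ℂ K (w : MonoidAlgebra ℂ K) = u := by
    refine ext_coeff fun x => ?_
    by_cases hx : x ∈ K
    · have := coeff_embedH_coe (w : MonoidAlgebra ℂ K) ⟨x, hx⟩
      simp only at this
      rw [this, hw, H41.coeff_centerOfFun]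
    · rw [coeff_embedH_of_not_mem _ hx, hsup x hx]
  have hinj : Function.Injective (embedH ℂ K) := fun a b hab => ext_coeff fun k => by
    rw [← coeff_embedH_coe a k, ← coeff_embedH_coe b k, hab]
  have hwi : w * w = w := Subtype.ext (hinj (by
    rw [Subalgebra.coe_mul, map_mul, hwu, hui]))
  have hwe : w * H41.blockIdem ({θ} : Set (IrrCharacter K)) = w := Subtype.ext (hinj (by
    rw [Subalgebra.coe_mul, map_mul, hwu]
    exact hue))
  have hω : H41.omega θ w * H41.omega θ w = H41.omega θ w := by rw [← map_mul, hwi]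
  have hwθ : w = H41.omega θ w • H41.blockIdem ({θ} : Set (IrrCharacter K)) := by
    refine H41.center_ext_omega fun ψ => ?_
    conv_lhs => rw [← hwe]
    rw [map_mul, map_smul, H41.omega_blockIdem, smul_eq_mul]
    split_ifs with h
    · rw [Set.mem_singleton_iff.1 h]
    · simp
  haveI := hM.2.1
  rcases eq_or_ne (H41.omega θ w) 0 with h | h
  · rw [← hwu, hwθ, h]
    simp only [zero_smul, ZeroMemClass.coe_zero, map_zero]
    exact zero_mem (H41.localRing M)
  · have h1 : H41.omega θ w = 1 := by
      rwa [mul_eq_left₀ h] at hω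
    rw [← hwu, hwθ, h1, one_smul]
    exact idemOf_mem hM K hKp θ g

/-- The coefficients of such an idempotent are locally integral. -/
theorem coeff_mem {p : ℕ} [hp : Fact p.Prime] {M : Ideal Cfsg.AlgInt}
    (hM : Cfsg.IsPModular p M) : ∀ (n : ℕ) {G : Type u} [Group G] [Fintype G], Nat.card G = n →
      Cfsg.IsPSolvable p G → ∀ e : MonoidAlgebra ℂ G, (∀ y, Commute e y) → e * e = e →
      GRing.adj e = e → (∀ g, p ∣ orderOf g → e.coeff g = 0) →
      ∀ g, Cfsg.MemLocalRing M (e.coeff g) := by
  intro n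
  induction n using Nat.strong_induction_on with
  | _ n ih =>
  intro G _ _ hn hsolv e hec hei hea hes g
  classical
  haveI := hM.2.1
  set K := Cfsg.pPrimeCore p G with hK
  haveI hKn : K.Normal := H19.pPrimeCore_normal p G
  have hKp : ¬ p ∣ Nat.card K :=
    (Nat.Prime.coprime_iff_not_dvd hp.out).1 (H19.pPrimeCore_coprime p).symm
  haveI := Fintype.ofFinite K
  haveI := H41.finite_irrCharacter (G := K)
  haveI := Fintype.ofFinite (IrrCharacter K)
  have hsum : e = ∑ θ : IrrCharacter K, e * idemOf K θ := by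
    rw [← Finset.mul_sum, sum_idemOf, mul_one]
  rw [← H41.mem_localRing, hsum, MonoidAlgebra.coeff_sum, Finsupp.finsetSum_apply]
  refine sum_mem fun θ _ => ?_
  set u := e * idemOf K θ with hu
  have hui : u * u = u := by
    rw [hu, mul_assoc e, ← mul_assoc (idemOf K θ) e, ← (hec (idemOf K θ)).eq, mul_assoc e,
      idemOf_mul_self, ← mul_assoc, hei]
  have hue : u * idemOf K θ = u := by rw [hu, mul_assoc, idemOf_mul_self]
  have hua : GRing.adj u = u := by rw [hu, adj_mul, adj_idemOf, hea, (hec _).eq]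
  have hus : ∀ x, p ∣ orderOf x → u.coeff x = 0 := by
    intro x hx
    rw [hu, coeff_mul_eq_sum]
    refine Finset.sum_eq_zero fun s _ => ?_
    by_cases hs : s⁻¹ * x ∈ K
    · rw [hes s ?_, zero_mul]
      by_contra hsr
      set m := orderOf (QuotientGroup.mk' K s)
      have hm : ¬ p ∣ m := fun h => hsr (h.trans (orderOf_map_dvd _ s))
      have e' : QuotientGroup.mk' K x = QuotientGroup.mk' K s := (QuotientGroup.eq.2 hs).symm
      have h1 : x ^ m ∈ K := by
        rw [← QuotientGroup.eq_one_iff]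
        show QuotientGroup.mk' K (x ^ m) = 1
        rw [map_pow, e', pow_orderOf_eq_one]
      have h2 : orderOf x ∣ m * Nat.card K := by
        rw [orderOf_dvd_iff_pow_eq_one, pow_mul]
        exact congrArg Subtype.val (pow_card_eq_one' (x := (⟨x ^ m, h1⟩ : K)))
      exact (hp.out.not_dvd_mul hm hKp) (hx.trans h2)
    · rw [supp_idemOf K θ _ hs, mul_zero]
  have hout : ∀ x, x ∉ stab K θ → u.coeff x = 0 := fun x hx =>
    coeff_mul_idemOf_eq_zero K θ hec hx
  by_cases htop : stab K θ = ⊤
  · have hθ : ∀ g, H41.twistIrr K θ g = θ := fun g => (htop ▸ Subgroup.mem_top g : g ∈ stab K θ)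
    have huc : ∀ y, Commute u y := fun y => by
      refine (hec y).mul_left (commute_idemOf K θ (fun g k => ?_) y)
      have := congrArg (fun φ : IrrCharacter K => (φ : K → ℂ) k) (hθ g)
      simpa only [H41.twistIrr_apply] using this
    exact coeff_mem_of_invariant hM hsolv K hK θ hθ u huc hui hua hus hue g
  · set T := stab K θ with hT
    haveI := Fintype.ofFinite T
    have hlt : Nat.card T < n := by
      rw [← hn]
      exact lt_of_le_of_ne (Subgroup.card_le_card_group T)
        fun h => htop ((Subgroup.card_eq_iff_eq_top T).1 h)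
    by_cases hgT : g ∈ T
    swap
    · rw [hout g hgT]; exact zero_mem _
    let v : MonoidAlgebra ℂ T := ofFun fun t => u.coeff (t : G)
    have hvu : embedH ℂ T v = u := by
      refine ext_coeff fun x => ?_
      by_cases hx : x ∈ T
      · have := coeff_embedH_coe v ⟨x, hx⟩
        simp only at this
        rw [this]
        exact coeff_ofFun _ _
      · rw [coeff_embedH_of_not_mem _ hx, hout x hx]
    have hinj : Function.Injective (embedH ℂ T) := fun a b hab => ext_coeff fun k => by
      rw [← coeff_embedH_coe a k, ← coeff_embedH_coe b k, hab]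
    have hTconj : ∀ t : T, ∀ y : G, u.coeff ((t : G) * y * (t : G)⁻¹) = u.coeff y := by
      intro t y
      have h1 : MonoidAlgebra.single (t : G)⁻¹ (1 : ℂ) * u * MonoidAlgebra.single (t : G) 1 = u := by
        have ht : H41.twistIrr K θ (t : G) = θ := t.2
        calc _ = e * (MonoidAlgebra.single (t : G)⁻¹ (1 : ℂ) * idemOf K θ *
              MonoidAlgebra.single (t : G) 1) := by
              simp only [hu, mul_assoc]
              rw [← mul_assoc (MonoidAlgebra.single (t : G)⁻¹ (1 : ℂ)) e, ← (hec _).eq, mul_assoc]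
          _ = u := by rw [conj_idemOf, ht]
      conv_rhs => rw [← h1]
      have h0 := coeff_conj (t : G)⁻¹ u y
      simp only [inv_inv] at h0
      rw [h0]
    have := ih (Nat.card T) hlt rfl (H35.isPSolvable_subgroup hsolv T) v
      (commute_of_class fun y k => by
        simp only [v, coeff_ofFun]
        exact hTconj k (y : G))
      (hinj (by rw [map_mul, hvu, hui]))
      (ext_coeff fun y => by
        have := congrArg (fun q : MonoidAlgebra ℂ G => q.coeff (y : G)) hua
        simp only [coeff_adj] at this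
        simp only [coeff_adj, v, coeff_ofFun]
        exact this)
      (fun y hy => by
        simp only [v, coeff_ofFun]
        exact hus _ (by rwa [Subgroup.orderOf_coe]))
      ⟨g, hgT⟩
    rw [H41.mem_localRing]
    simpa [v] using this

end Cfsg.Agent.H41.DegWeighted
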