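import Cfsg.Agent.H23.QuaternionAut

/-!
# The odd automorphisms of `Q₈` permute its cyclic subgroups of order four transitively
-/

set_option autoImplicit false

namespace Cfsg.Agent.H41

open QuaternionGroup

lemma q8_rotation : ∀ u v : QuaternionGroup 2,
    (∀ x y, H23.q8Map u v (x * y) = H23.q8Map u v x * H23.q8Map u v y) →
    (∀ x, H23.q8Map u v (H23.q8Map u v (H23.q8Map u v x)) = x) → (∃ x, H23.q8Map u v x ≠ x) →
    ∀ x y : QuaternionGroup 2, x * x ≠ 1 → y * y ≠ 1 →
      y = x ∨ y * x = 1 ∨ H23.q8Map u v x = y ∨ H23.q8Map u v x * y = 1 ∨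
        H23.q8Map u v (H23.q8Map u v x) = y ∨ H23.q8Map u v (H23.q8Map u v x) * y = 1 := by
  decide +kernel

lemma q8_unique_involution : ∀ x y : QuaternionGroup 2,
    x * x = 1 → y * y = 1 → x ≠ 1 → y ≠ 1 → x = y := by
  decide +kernel

/-- A group of order four with at most one involution is cyclic; in `Q₈` this gives a generator. -/
lemma q8_exists_generator {A : Subgroup (QuaternionGroup 2)} (hA : Nat.card A = 4) :
    ∃ x : QuaternionGroup 2, x * x ≠ 1 ∧ A = Subgroup.zpowers x := by
  obtain ⟨x, hxA, hx⟩ : ∃ x ∈ A, x * x ≠ 1 := by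
    by_contra hcon
    push Not at hcon
    classical
    have h2 : (A : Set (QuaternionGroup 2)) ⊆ {1, a 2} := fun x hx => by
      rcases eq_or_ne x 1 with h | h
      · exact Or.inl h
      · exact Or.inr (q8_unique_involution x (a 2) (hcon x hx) (by decide) h (by decide))
    have := Set.ncard_le_ncard h2 (Set.toFinite _)
    rw [Set.ncard_pair (by decide), ← Nat.card_coe_set_eq] at this
    have h4 : Nat.card ((A : Set (QuaternionGroup 2)) : Type) = 4 := hA
    omega
  refine ⟨x, hx, (Subgroup.eq_of_le_of_card_ge (Subgroup.zpowers_le.2 hxA) ?_).symm⟩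
  rw [hA, Nat.card_zpowers]
  have h4 : ∀ x : QuaternionGroup 2, x * x * (x * x) = 1 := by decide +kernel
  rw [orderOf_eq_prime_pow (p := 2) (n := 1) (by rwa [pow_one, pow_two])
    (by rw [show (2 : ℕ) ^ (1 + 1) = 2 + 2 from rfl, pow_add, pow_two, h4])]
  norm_num

/-- A non-trivial automorphism of odd order of `Q₈` carries any subgroup of order four onto any
other by one of its powers. -/
lemma q8_exists_pow_map (α : MulAut (QuaternionGroup 2)) {r : ℕ} (hr : Odd r) (hαr : α ^ r = 1)
    (hne : α ≠ 1) {A B : Subgroup (QuaternionGroup 2)} (hA : Nat.card A = 4) (hB : Nat.card B = 4) :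
    ∃ k : ℕ, B = A.map ((α ^ k : MulAut (QuaternionGroup 2)) : QuaternionGroup 2 →* QuaternionGroup 2) := by
  obtain ⟨h3, -⟩ := H23.exists_sl_conj α hr hαr hne
  have he := H23.q8Map_eq α
  obtain ⟨x, hx, rfl⟩ := q8_exists_generator hA
  obtain ⟨y, hy, rfl⟩ := q8_exists_generator hB
  have h := q8_rotation (α (a 1)) (α (xa 0))
    (fun x y => by rw [← he, ← he, ← he, map_mul])
    (fun x => by
      rw [← he, ← he, ← he, ← MulAut.mul_apply, ← MulAut.mul_apply, ← pow_three', h3]
      rfl)
    (by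
      by_contra hcon
      push Not at hcon
      exact hne (MulEquiv.ext fun x => (he x).trans (hcon x)))
    x y hx hy
  simp only [← he] at h
  have key : ∀ k : ℕ, y = (α ^ k) x ∨ (α ^ k) x * y = 1 →
      Subgroup.zpowers y = (Subgroup.zpowers x).map
        ((α ^ k : MulAut (QuaternionGroup 2)) : QuaternionGroup 2 →* QuaternionGroup 2) := by
    intro k hk
    rw [MonoidHom.map_zpowers]
    rcases hk with hk | hk
    · rw [hk]; rfl
    · rw [eq_inv_of_mul_eq_one_right hk, Subgroup.zpowers_inv]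
      rfl
  rcases h with h | h | h | h | h | h
  · exact ⟨0, key 0 (Or.inl (by simpa using h))⟩
  · exact ⟨0, key 0 (Or.inr (by simpa using mul_eq_one_comm.1 h))⟩
  · exact ⟨1, key 1 (Or.inl (by rw [pow_one]; exact h.symm))⟩
  · exact ⟨1, key 1 (Or.inr (by rwa [pow_one]))⟩
  · exact ⟨2, key 2 (Or.inl (by rw [pow_two]; exact h.symm))⟩
  · exact ⟨2, key 2 (Or.inr (by rw [pow_two]; exact h))⟩

end Cfsg.Agent.H41
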