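import Cfsg.Agent.H41.DefectLocal
import Cfsg.Agent.H40.FirstMain
import Cfsg.Agent.H40.BlockDefect
import Cfsg.Agent.H40.PPart
import Cfsg.Agent.H44.Inflation

/-!
# Blocks of a group with a normal Sylow subgroup
-/

set_option autoImplicit false

namespace Cfsg.Agent.H41

open Cfsg
open scoped ComplexConjugate

variable {G : Type*} [Group G] [Finite G] {p : ℕ} [hp : Fact p.Prime]
variable {M : Ideal AlgInt} [M.IsMaximal]

/-- With a normal Sylow subgroup, every block has it as defect group. -/
theorem isDefectGroup_normalSylow (hM : IsPModular p M) {Q : Subgroup G} [Q.Normal]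
    (hQ : IsPGroup p Q) (hidx : ¬ p ∣ Q.index) {B : Set (IrrCharacter G)} (hB : IsPBlock M B) :
    IsDefectGroup p M B Q := by
  obtain ⟨E, hE⟩ := H40.exists_isDefectGroup hM hB
  have hle : Q ≤ E := H40.normal_le_defectGroup hM hB hE hQ
  obtain ⟨d, hd⟩ := IsPGroup.iff_card.1 hQ
  have hfac : (Nat.card G).factorization p = d := by
    rw [← Q.card_mul_index, hd, Nat.factorization_mul (pow_ne_zero _ hp.out.ne_zero)
      Q.index_ne_zero_of_finite, Finsupp.add_apply, hp.out.factorization_pow, Finsupp.single_eq_same,
      Nat.factorization_eq_zero_of_not_dvd hidx, add_zero]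
  have hdef : blockDefect p B ≤ d := hfac ▸ Nat.sub_le _ _
  have hcard : Nat.card E ≤ Nat.card Q := by
    rw [H40.card_defectGroup hM hB hE, hd]
    exact Nat.pow_le_pow_right hp.out.pos hdef
  exact (Subgroup.eq_of_le_of_card_ge hle hcard) ▸ hE

/-- With a normal Sylow subgroup `Q`, the blocks correspond to the `p`-regular classes centralising
`Q`. -/
theorem card_blocks_normalSylow (hM : IsPModular p M) (Q : Subgroup G) [Q.Normal]
    (hQ : IsPGroup p Q) (hidx : ¬ p ∣ Q.index) :
    Nat.card {B : Set (IrrCharacter G) // IsPBlock M B} =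
      Nat.card {C : ConjClasses G // ∀ n : G, ConjClasses.mk n = C →
        ¬ p ∣ orderOf n ∧ n ∈ Subgroup.centralizer (Q : Set G)} := by
  classical
  haveI := Fintype.ofFinite G
  haveI : Finite (ConjClasses G) := Quotient.finite _
  haveI := IsPModular.charP hM
  obtain ⟨d, hd⟩ := IsPGroup.iff_card.1 hQ
  have hfac : (Nat.card G).factorization p = d := by
    rw [← Q.card_mul_index, hd, Nat.factorization_mul (pow_ne_zero _ hp.out.ne_zero)
      Q.index_ne_zero_of_finite, Finsupp.add_apply, hp.out.factorization_pow, Finsupp.single_eq_same,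
      Nat.factorization_eq_zero_of_not_dvd hidx, add_zero]
  have hblock : ∀ B : Set (IrrCharacter G), IsPBlock M B → d ≤ blockDefect p B := fun B hB => by
    have h := H40.card_defectGroup hM hB (isDefectGroup_normalSylow hM hQ hidx hB)
    rw [hd] at h
    exact (Nat.pow_right_injective hp.out.two_le h).le
  -- classes centralising `Q`
  have hclass : ∀ g : G, d ≤ (Nat.card (Subgroup.centralizer ({g} : Set G))).factorization p ↔
      g ∈ Subgroup.centralizer (Q : Set G) := by
    intro g
    constructor
    · intro h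
      obtain ⟨S, hS⟩ := H40.exists_isSylowIn p (Subgroup.centralizer ({g} : Set G))
      have hSp : IsPGroup p S := IsPGroup.of_card (H40.card_isSylowIn hS)
      obtain ⟨R, hR⟩ := hSp.exists_le_sylow
      let QS : Sylow p G := hQ.toSylow hidx
      obtain ⟨u, hu⟩ := MulAction.exists_smul_eq G QS R
      have hRQ : (R : Subgroup G) = Q := by
        rw [← hu, Sylow.coe_subgroup_smul]
        exact Subgroup.Normal.conj_smul_eq_self u Q
      have hSQ : S = Q := Subgroup.eq_of_le_of_card_ge (hRQ ▸ hR) (by
        rw [H40.card_isSylowIn hS, hd]; exact Nat.pow_le_pow_right hp.out.pos h)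
      exact H40.le_centralizer_singleton_iff.1 (hSQ ▸ hS.1)
    · intro h
      have hle : Q ≤ Subgroup.centralizer ({g} : Set G) := H40.le_centralizer_singleton_iff.2 h
      have := Subgroup.card_dvd_of_le hle
      rw [hd] at this
      exact (hp.out.pow_dvd_iff_le_factorization Nat.card_pos.ne').1 this
  refine le_antisymm ?_ ?_
  · have h := card_blocks_le (G := G) hM d
    refine le_trans (le_of_eq (Nat.card_congr (Equiv.subtypeEquivRight fun B =>
      ⟨fun hB => ⟨hB, hblock B hB⟩, And.left⟩))) (h.trans (le_of_eq (Nat.card_congr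
      (Equiv.subtypeEquivRight fun C => ⟨?_, ?_⟩))))
    · rintro ⟨g, rfl, hreg, hg⟩ n hn
      obtain ⟨u, hu⟩ := isConj_iff.1 (ConjClasses.mk_eq_mk_iff_isConj.1 hn)
      have hgC := (hclass g).1 hg
      have e : n = u⁻¹ * g * u := by rw [← hu]; group
      rw [e]
      refine ⟨?_, ?_⟩
      · have := (MulAut.conj u⁻¹).orderOf_eq g
        rw [MulAut.conj_apply, inv_inv] at this
        rwa [this]
      · haveI : (Subgroup.centralizer (Q : Set G)).Normal := inferInstance
        simpa using this.conj_mem g hgC u⁻¹
    · intro hC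
      obtain ⟨g, rfl⟩ := ConjClasses.mk_surjective C
      exact ⟨g, rfl, (hC g rfl).1, (hclass g).2 (hC g rfl).2⟩
  · set S := {C : ConjClasses G // ∀ n : G, ConjClasses.mk n = C →
      ¬ p ∣ orderOf n ∧ n ∈ Subgroup.centralizer (Q : Set G)}
    set T := {B : Set (IrrCharacter G) // IsPBlock M B}
    haveI : Fintype S := Fintype.ofFinite S
    haveI : Fintype T := Fintype.ofFinite T
    have hchoose : ∀ B : T, ∃ χ : IrrCharacter G, χ ∈ B.1 := fun B => IsPBlock.nonempty B.2
    choose χ hχ using hchoose
    let v : S → T → ResField M := fun C B => omegaBar M (χ B) (classSumZ (ResField M) (Quotient.out C.1))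
    have hli : LinearIndependent (ResField M) v := by
      rw [Fintype.linearIndependent_iff]
      intro c hc C₀
      have hall : ∀ ψ : IrrCharacter G,
          ∑ C : S, c C * omegaBar M ψ (classSumZ (ResField M) (Quotient.out C.1)) = 0 := by
        intro ψ
        have := congrFun hc ⟨_, isPBlock_blockOf ψ⟩
        simp only [Finset.sum_apply, Pi.smul_apply, smul_eq_mul, Pi.zero_apply, v] at this
        rw [← this]
        exact Finset.sum_congr rfl fun C _ => by
          rw [omegaBar_eq_of_mem (isPBlock_blockOf ψ) (hχ ⟨_, isPBlock_blockOf ψ⟩) (mem_blockOf_self ψ)]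
      let g : S → G := fun C => Quotient.out C.1
      have hg : ∀ C : S, ¬ p ∣ orderOf (g C) ∧ g C ∈ Subgroup.centralizer (Q : Set G) :=
        fun C => C.2 (g C) (Quotient.out_eq C.1)
      have hmem : ∀ (φ : IrrCharacter (G ⧸ Q)) (q : G ⧸ Q),
          (φ : G ⧸ Q → ℂ) 1 * conj ((φ : G ⧸ Q → ℂ) q) ∈ localRing M := fun φ q =>
        mul_mem (isIntegral_mem_localRing (H42.isIntegral_value (H26.irr_isCharacter φ) _))
          (by rw [← H26.irr_inv]
              exact isIntegral_mem_localRing (H42.isIntegral_value (H26.irr_isCharacter φ) _))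
      set q₀ : G ⧸ Q := (g C₀ : G ⧸ Q)
      have hsum : ∀ C : S,
          ∑ φ : IrrCharacter (G ⧸ Q), (⟨_, hmem φ q₀⟩ : localRing M) *
            omegaLoc M (H44.inflate Q φ) (classSumZ (localRing M) (g C)) =
          if C = C₀ then ((((Subgroup.centralizer ({g C} : Set G)).index *
            Nat.card (Subgroup.centralizer ({q₀} : Set (G ⧸ Q))) : ℕ)) : localRing M) else 0 := by
        intro C
        apply Subtype.ext
        rw [AddSubmonoidClass.coe_finsetSum]
        simp only [MulMemClass.coe_mul, coe_omegaLoc_classSumZ, centralChar, H44.inflate_apply,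
          QuotientGroup.mk_one]
        have e : ∀ φ : IrrCharacter (G ⧸ Q), (φ : G ⧸ Q → ℂ) 1 * conj ((φ : G ⧸ Q → ℂ) q₀) *
            (((Subgroup.centralizer ({g C} : Set G)).index : ℂ) * (φ : G ⧸ Q → ℂ) (g C) /
              (φ : G ⧸ Q → ℂ) 1) = ((Subgroup.centralizer ({g C} : Set G)).index : ℂ) *
              ((φ : G ⧸ Q → ℂ) (g C) * conj ((φ : G ⧸ Q → ℂ) q₀)) := fun φ => by
          field_simp [H26.irr_one_ne_zero φ]
        rw [Finset.sum_congr rfl fun φ _ => e φ, ← Finset.mul_sum, H26.column_orthogonality,
          H26.classIndicator]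
        by_cases hC : C = C₀
        · subst hC
          rw [if_pos rfl, if_pos (IsConj.refl _), mul_one]
          push_cast
          rfl
        · rw [if_neg hC, if_neg, mul_zero, mul_zero]
          · rfl
          · intro hconj
            obtain ⟨w, hw⟩ := isConj_iff.1 hconj
            obtain ⟨u, rfl⟩ := QuotientGroup.mk_surjective w
            rw [← QuotientGroup.mk_mul, ← QuotientGroup.mk_inv, ← QuotientGroup.mk_mul] at hw
            have hm : (g C₀)⁻¹ * (u * g C * u⁻¹) ∈ Q := QuotientGroup.eq.1 hw.symm
            obtain ⟨j, hj⟩ := IsPGroup.iff_orderOf.1 hQ (⟨_, hm⟩ : Q)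
            rw [← Subgroup.orderOf_coe] at hj
            have hcm : Commute ((g C₀)⁻¹ * (u * g C * u⁻¹)) (g C₀) :=
              Subgroup.mem_centralizer_iff.1 (hg C₀).2 _ hm
            have h1 := H40.isPPart_mul hcm hj (hg C₀).1
            rw [hcm.eq, mul_inv_cancel_left] at h1
            have hreg : ¬ p ∣ orderOf (u * g C * u⁻¹) := by
              rw [← MulAut.conj_apply, MulEquiv.orderOf_eq]; exact (hg C).1
            have h2 := (H40.regular_iff_pPart_eq_one h1).1 hreg
            refine hC (Subtype.ext ?_)
            rw [← Quotient.out_eq C.1, ← Quotient.out_eq C₀.1]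
            exact ConjClasses.mk_eq_mk_iff_isConj.2
              (isConj_iff.2 ⟨u, (inv_mul_eq_one.1 h2).symm⟩)
      have key : ∑ φ : IrrCharacter (G ⧸ Q), res M ⟨_, hmem φ q₀⟩ *
          ∑ C : S, c C * omegaBar M (H44.inflate Q φ) (classSumZ (ResField M) (g C)) = 0 :=
        Finset.sum_eq_zero fun φ _ => by rw [hall, mul_zero]
      simp only [Finset.mul_sum, omegaBar_classSumZ, mul_left_comm _ (c _), ← map_mul] at key
      rw [Finset.sum_comm] at key
      simp only [← Finset.mul_sum, ← map_sum, hsum] at key
      rw [Finset.sum_eq_single C₀ (fun C _ hC => by rw [if_neg hC, map_zero, mul_zero])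
        (fun h => absurd (Finset.mem_univ _) h), if_pos rfl, map_natCast] at key
      refine (mul_eq_zero.1 key).resolve_right fun h0 => ?_
      rw [IsPModular.natCast_eq_zero_iff hM, hp.out.dvd_mul] at h0
      rcases h0 with h0 | h0
      · exact hidx (h0.trans (Subgroup.index_dvd_of_le
          (H40.le_centralizer_singleton_iff.2 (hg C₀).2)))
      · exact hidx (h0.trans (Subgroup.card_subgroup_dvd_card _))
    have h := hli.fintype_card_le_finrank
    rw [Module.finrank_pi, ← Nat.card_eq_fintype_card, ← Nat.card_eq_fintype_card] at h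
    exact h

end Cfsg.Agent.H41
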